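import Mathlib

/-! Kernel computations with matrices over `ℤ[ζ₇] / p`. -/

set_option autoImplicit false

namespace Cfsg.Lib.C6U

open Matrix

variable {F : Type*} [Field F] {ζ : F} {p : ℕ}

/-- Polynomials of degree less than seven. -/
structure C7 where
  a : ℕ
  b : ℕ
  c : ℕ
  d : ℕ
  e : ℕ
  f : ℕ
  g : ℕ
deriving DecidableEq

namespace C7

/-- Evaluation. -/
def ev (ζ : F) (x : C7) : F :=
  x.a + x.b * ζ + x.c * ζ ^ 2 + x.d * ζ ^ 3 + x.e * ζ ^ 4 + x.f * ζ ^ 5 + x.g * ζ ^ 6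

/-- Constants. -/
def k (n : ℕ) : C7 := ⟨n, 0, 0, 0, 0, 0, 0⟩

/-- Sum. -/
def add (x y : C7) : C7 := ⟨x.a + y.a, x.b + y.b, x.c + y.c, x.d + y.d, x.e + y.e, x.f + y.f, x.g + y.g⟩

/-- Cyclic convolution. -/
def mul (x y : C7) : C7 :=
  ⟨x.a * y.a + x.b * y.g + x.c * y.f + x.d * y.e + x.e * y.d + x.f * y.c + x.g * y.b,
   x.a * y.b + x.b * y.a + x.c * y.g + x.d * y.f + x.e * y.e + x.f * y.d + x.g * y.c,
   x.a * y.c + x.b * y.b + x.c * y.a + x.d * y.g + x.e * y.f + x.f * y.e + x.g * y.d,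
   x.a * y.d + x.b * y.c + x.c * y.b + x.d * y.a + x.e * y.g + x.f * y.f + x.g * y.e,
   x.a * y.e + x.b * y.d + x.c * y.c + x.d * y.b + x.e * y.a + x.f * y.g + x.g * y.f,
   x.a * y.f + x.b * y.e + x.c * y.d + x.d * y.c + x.e * y.b + x.f * y.a + x.g * y.g,
   x.a * y.g + x.b * y.f + x.c * y.e + x.d * y.d + x.e * y.c + x.f * y.b + x.g * y.a⟩

/-- Reduction modulo `p + 1` and the cyclotomic polynomial. -/
def red (p : ℕ) (x : C7) : C7 :=
  ⟨(x.a + p * x.g) % (p + 1), (x.b + p * x.g) % (p + 1), (x.c + p * x.g) % (p + 1), (x.d + p * x.g) % (p + 1),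
    (x.e + p * x.g) % (p + 1), (x.f + p * x.g) % (p + 1), 0⟩

/-- Decoding. -/
def dec (n : ℕ) : C7 := ⟨n % 32, n >>> 5 % 32, n >>> 10 % 32, n >>> 15 % 32, n >>> 20 % 32, n >>> 25 % 32, 0⟩

@[simp] theorem ev_k (n : ℕ) : ev ζ (k n) = n := by simp [ev, k]

theorem ev_add (x y : C7) : ev ζ (add x y) = ev ζ x + ev ζ y := by
  simp only [ev, add, Nat.cast_add]; ring

theorem ev_mul (h : ζ ^ 7 = 1) (x y : C7) : ev ζ (mul x y) = ev ζ x * ev ζ y := by
  simp only [ev, mul, Nat.cast_add, Nat.cast_mul]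
  grind

theorem ev_red [CharP F (p + 1)] (h : ζ ^ 6 + ζ ^ 5 + ζ ^ 4 + ζ ^ 3 + ζ ^ 2 + ζ + 1 = 0) (x : C7) :
    ev ζ (red p x) = ev ζ x := by
  have k : (p : F) = -1 := eq_neg_of_add_eq_zero_left (by exact_mod_cast CharP.cast_eq_zero F (p + 1))
  simp only [ev, red, ← CharP.cast_eq_mod F (p + 1), Nat.cast_add, Nat.cast_mul, k, Nat.cast_zero]
  linear_combination (-x.g : F) * h

end C7

open C7

/-- Coded matrices. -/
abbrev Mt := ℕ → ℕ → C7

/-- Evaluation of a coded matrix. -/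
def E (ζ : F) (X : Mt) : Matrix (Fin 4) (Fin 4) F := of fun i j => ev ζ (X i j)

/-- Product. -/
def mm (X Y : Mt) : Mt := fun i j =>
  add (add (mul (X i 0) (Y 0 j)) (mul (X i 1) (Y 1 j))) (add (mul (X i 2) (Y 2 j)) (mul (X i 3) (Y 3 j)))

/-- Identity. -/
def one : Mt := fun i j => if i = j then k 1 else k 0

/-- Sum. -/
def ad (X Y : Mt) : Mt := fun i j => add (X i j) (Y i j)

/-- Decoding. -/
def dm (N : ℕ) : Mt := fun i j => dec (N >>> (30 * (4 * i + j)))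

/-- Equality test. -/
def ok (p : ℕ) (X Y : Mt) : Bool :=
  [0, 1, 2, 3].all fun i => [0, 1, 2, 3].all fun j => decide (red p (X i j) = red p (Y i j))

theorem E_mm (h : ζ ^ 7 = 1) (X Y : Mt) : E ζ (mm X Y) = E ζ X * E ζ Y := by
  ext i j
  simp [E, mm, ev_add, ev_mul h, mul_apply, Fin.sum_univ_four, add_assoc]

theorem E_one : E ζ one = 1 := by
  ext i j
  simp only [E, one, of_apply, one_apply, Fin.val_inj]
  split_ifs <;> simp

theorem E_ad (X Y : Mt) : E ζ (ad X Y) = E ζ X + E ζ Y := by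
  ext i j
  simp [E, ad, ev_add]

theorem E_ok [CharP F (p + 1)] (h : ζ ^ 6 + ζ ^ 5 + ζ ^ 4 + ζ ^ 3 + ζ ^ 2 + ζ + 1 = 0) {X Y : Mt}
    (e : ok p X Y = true) : E ζ X = E ζ Y := by
  ext i j
  simp only [ok, List.all_eq_true, decide_eq_true_eq] at e
  have k : ∀ i : Fin 4, i.1 ∈ [0, 1, 2, 3] := by decide
  rw [E, E, of_apply, of_apply, ← ev_red (p := p) h, e i (k i) j (k j), ev_red h]

/-- Checking a straight line program. -/
def run (p : ℕ) (t : Mt → Bool) : List (ℕ × ℕ × ℕ) → List Mt → Bool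
  | [], L => t (L.getD 0 one)
  | r :: T, L => ok p (mm (L.getD r.1 one) (L.getD r.2.1 one)) (dm r.2.2) && run p t T (dm r.2.2 :: L)

theorem run_spec [CharP F (p + 1)] (h : ζ ^ 6 + ζ ^ 5 + ζ ^ 4 + ζ ^ 3 + ζ ^ 2 + ζ + 1 = 0)
    {Q : Matrix (Fin 4) (Fin 4) F → Prop} (h1 : Q 1) (h2 : ∀ a b, Q a → Q b → Q (a * b)) {t : Mt → Bool}
    (T : List (ℕ × ℕ × ℕ)) : ∀ L : List Mt, (∀ X ∈ L, Q (E ζ X)) → run p t T L = true → ∃ X, Q (E ζ X) ∧ t X = true := by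
  have z7 : ζ ^ 7 = 1 := by linear_combination (ζ - 1) * h
  have k : ∀ L : List Mt, (∀ X ∈ L, Q (E ζ X)) → ∀ i, Q (E ζ (L.getD i one)) := fun L hL i => by
    rw [List.getD_eq_getElem?_getD]
    cases e : L[i]? with
    | none => simpa [E_one] using h1
    | some X => exact hL X (List.mem_of_getElem? e)
  induction T with
  | nil => exact fun L hL e => ⟨_, k L hL 0, e⟩
  | cons r T ih =>
    intro L hL e
    rw [run, Bool.and_eq_true] at e
    refine ih _ (List.forall_mem_cons.2 ⟨?_, hL⟩) e.2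
    rw [← E_ok h e.1, E_mm z7]
    exact h2 _ _ (k L hL _) (k L hL _)

end Cfsg.Lib.C6U
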